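import Cfsg.Agent.Lib.Hk.Hecke
import Cfsg.Agent.Lib.Chev.Adjoint2

/-! The building of a root group datum. -/

set_option autoImplicit false
set_option linter.unusedSectionVars false

namespace Cfsg.Agent.Hk
open Cfsg.Agent.Char Cfsg.Agent.Chev Cfsg.Agent.Chev.RSys Cfsg.Agent.Chev.PreRGD Cfsg.Lie

variable {ι I : Type*} [Fintype I] [DecidableEq I] [Fintype ι] [DecidableEq ι] {R : RSys ι I} [Fintype R.W]
  {G : Type*} [Group G] {P : PreRGD R G}

theorem exists_bld [Finite G] (hP : P.Nondeg) (hf : ∀ g, ∃ w ∈ R.W, g ∈ P.cell w) {q : ℕ}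
    (hq : ∀ r, Nat.card (P.X r) = q) : ∃ δ : G ⧸ P.B → G ⧸ P.B → R.W, 0 < q → Bld G δ q := by
  choose c hc hc' using hf
  have u : ∀ {g} {w : R.W}, g ∈ P.cell w ↔ (⟨c g, hc g⟩ : R.W) = w := fun {g w} =>
    ⟨fun h => Subtype.ext (hP.cell_unique (hc g) w.2 (hc' g) h), fun h => h ▸ hc' g⟩
  have key : ∃ δ : G ⧸ P.B → G ⧸ P.B → R.W, ∀ (a b : G) (w : R.W), δ a b = w ↔ a⁻¹ * b ∈ P.cell w := by
    refine ⟨fun x y => ⟨c (x.out⁻¹ * y.out), hc _⟩, fun a b w => u.symm.trans ?_⟩
    obtain ⟨s, hs⟩ := QuotientGroup.mk_out_eq_mul P.B a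
    obtain ⟨t, ht⟩ := QuotientGroup.mk_out_eq_mul P.B b
    rw [hs, ht]
    exact ⟨fun h => by simpa [mul_assoc] using cell_mul_mem (mul_mem_cell s.2 h) (inv_mem t.2),
      fun h => by simpa [mul_assoc] using cell_mul_mem (mul_mem_cell (inv_mem s.2) h) t.2⟩
  obtain ⟨δ, k⟩ := key
  have k' := fun a b : G => (k a b _).1 rfl
  have s : ∀ {a b : G} {i}, δ a b = sW R i → ∃ s ∈ P.B, ∃ t ∈ P.B, a⁻¹ * b = s * P.n i * t := fun {a b i} h => by
    obtain ⟨s, hs, t, ht, e⟩ := (k _ _ _).1 h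
    obtain ⟨m, hm, e'⟩ := P.exists_n_eq i
    exact ⟨s, hs, m⁻¹ * t, mul_mem (inv_mem (P.H_le_B hm)) ht, by rw [e, e']; simp [sW, mul_assoc]⟩
  refine ⟨δ, fun hq0 => ⟨fun g x y => ?_, fun x y x' y' => ?_, inferInstance, hq0, fun x y => ?_, fun x y => ?_,
    fun x y z i => ?_, fun x y z i => ?_, fun x z i => ?_, fun x w => ?_⟩⟩
  · induction x, y using Quotient.inductionOn₂' with
    | _ a b => exact (k (g * a) (g * b) _).2 (by simpa [mul_assoc] using k' a b)
  · induction x, y using Quotient.inductionOn₂' with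
    | _ a b =>
    induction x', y' using Quotient.inductionOn₂' with
    | _ a' b' =>
    intro e
    obtain ⟨s, hs, t, ht, e1⟩ := k' a b
    obtain ⟨s', hs', t', ht', e2⟩ := (k a' b' _).1 e.symm
    generalize P.nW _ = m at e1 e2
    refine ⟨a' * s' * s⁻¹ * a⁻¹, QuotientGroup.eq.2 ?_, QuotientGroup.eq.2 ?_⟩
    · simpa [mul_assoc] using mul_mem hs (inv_mem hs')
    · rw [inv_mul_eq_iff_eq_mul] at e1 e2
      subst e1 e2
      simpa [mul_assoc] using mul_mem (inv_mem ht) ht'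
  · induction x, y using Quotient.inductionOn₂' with
    | _ a b => exact (k b a _).2 (by simpa using inv_mem_cell (δ a b).2 (k' a b))
  · induction x, y using Quotient.inductionOn₂' with
    | _ a b => exact (k a b 1).trans (mem_cell_one_iff.trans QuotientGroup.eq.symm)
  · induction x, y, z using Quotient.inductionOn₃' with
    | _ a b c =>
    intro e hu
    obtain ⟨s, hs, t, ht, e⟩ := s e
    have := mul_mem_cell hs (n_mul_mem_cell_of_pos i (δ b c).2 hu (mul_mem_cell ht (k' b c)))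
    rw [← mul_assoc, ← mul_assoc, mul_assoc s, ← mul_assoc s, ← e, mul_assoc, mul_inv_cancel_left] at this
    exact (k a c _).2 this
  · induction x, y, z using Quotient.inductionOn₃' with
    | _ a b c =>
    intro e
    obtain ⟨s, hs, t, ht, e⟩ := s e
    refine (n_mul_mem_cell i (δ b c).2 (mul_mem_cell ht (k' b c))).imp (fun h => (k a c _).2 ?_) fun h => (k a c _).2 ?_
    all_goals
      have := mul_mem_cell hs h
      rwa [← mul_assoc, ← mul_assoc, mul_assoc s, ← mul_assoc s, ← e, mul_assoc, mul_inv_cancel_left] at this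
  · induction x, z using Quotient.inductionOn₂' with
    | _ a c =>
    intro _
    obtain ⟨s, hs, t, ht, e⟩ := k' a c
    refine ⟨(a * s * (P.n i)⁻¹ : G), (k _ _ _).2 ?_, (k _ _ _).2 ?_⟩
    · have := mul_mem_cell hs (inv_mem_cell (R.sref_mem_W i) (n_mem_cell (P := P) i))
      simpa [mul_assoc, sW] using this
    · have := cell_mul_mem (n_mul_nW_mem_cell (P := P) i (δ a c).2) ht
      simpa [mul_assoc, sW, e] using this
  · induction x using Quotient.inductionOn' with
    | _ a =>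
    have h1 := QuotientGroup.card_preimage_mk P.B {y | δ a y = w}
    have h2 : Nat.card (QuotientGroup.mk ⁻¹' {y | δ a y = w} : Set G) = Nat.card (P.cell w) :=
      Nat.card_congr ((Equiv.mulLeft a⁻¹).subtypeEquiv fun b => k a b w)
    rw [h2, hP.card_cell w.2, hP.card_Uw hq w.2] at h1
    exact (Nat.eq_of_mul_eq_mul_left Nat.card_pos h1).symm

theorem card_constituents (D : ChevalleyDatum) [ChevM.GoodM D] (F : Type*) [Field F] [Finite F] :
    Nat.card {χ : IrrCharacter (D.group F) // ∃ φ, IsCharacter (D.group F) φ ∧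
      fixedPointCharacter ((D.borelSubgroup F).subgroupOf (D.group F)) = (χ : D.group F → ℂ) + φ} =
      Nat.card (ConjClasses (rs D).W) := by
  classical
  have := Fintype.ofFinite (rs D).W
  have := Fintype.ofFinite (D.group F)
  have := Fintype.ofFinite (D.group F ⧸ (ChevM.PG D F).B)
  obtain ⟨δ, h⟩ := exists_bld (ChevM.nondeg D F) ChevM.bruhat ChevM.card_X
  rw [← (h Nat.card_pos).card_eq fun k => ?_, ChevM.subgroupOf_eq_of_map ChevM.map_B]
  · refine Nat.card_congr (Equiv.subtypeEquivRight fun χ => ⟨fun ⟨φ, h1, h2⟩ => ?_, fun h1 =>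
      ⟨_, isChar_sub_irr (isChar_perm _) χ.2 h1, (add_sub_cancel _ _).symm⟩⟩)
    obtain ⟨n, hn⟩ := exists_nat_inner h1 (isChar_of_irr χ.2)
    rw [show pch (D.group F) (D.group F ⧸ (ChevM.PG D F).B) = _ from h2, Char.inner_add_left, inner_irr_self χ.2, hn]
    exact_mod_cast (by omega : 1 + n ≠ 0)
  · have := Fintype.ofFinite (D.group (GaloisField 2 (k + 1)))
    have := Fintype.ofFinite (D.group (GaloisField 2 (k + 1)) ⧸ (ChevM.PG D (GaloisField 2 (k + 1))).B)
    obtain ⟨δ, h⟩ := exists_bld (ChevM.nondeg D (GaloisField 2 (k + 1))) ChevM.bruhat ChevM.card_X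
    refine ⟨_, ?_, (h Nat.card_pos).ranks.1⟩
    rw [GaloisField.card 2 _ k.succ_ne_zero]
    exact (Nat.lt_succ_self k).trans Nat.lt_two_pow_self

end Cfsg.Agent.Hk
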