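import Cfsg.Agent.Lib.Chev.Weyl

/-! The Weyl group of a root system is a Coxeter group; computing with words. -/

set_option autoImplicit false
set_option linter.unusedSectionVars false

namespace Cfsg.Agent.Hk
open Cfsg.Agent.Chev Cfsg.Agent.Chev.RSys CoxeterSystem

section
variable {ι I : Type*} [Fintype I] [DecidableEq I] [Fintype ι] [DecidableEq ι] {R : RSys ι I} {M : CoxeterMatrix I}
  (hL : M.IsLiftable R.sref) (h0 : ∀ i j, M i j ≠ 0)
  (hP : ∀ i j, R.length (R.wordW (braidWord M i j)) = M i j)
include hL

theorem lift_wordProd (l : List I) : M.toCoxeterSystem.lift ⟨_, hL⟩ (M.toCoxeterSystem.wordProd l) = R.wordW l := by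
  induction l with
  | nil => simp
  | cons i l ih => rw [wordProd_cons, map_mul, ih, lift_apply_simple, wordW_cons]

omit hL in
theorem red_concat {a : List I} {i : I} (h : R.length (R.wordW (a ++ [i])) = a.length + 1) :
    R.length (R.wordW a) = a.length ∧ ¬ R.IsPos (R.wordW (a ++ [i]) (R.simple i)) := by
  have h1 := length_wordW_le (R := R) a
  have h2 := length_mul_sref_le (R.wordW_mem_Aut a) i
  rw [← wordW_concat] at h2
  refine ⟨by omega, fun h3 => ?_⟩
  have := length_mul_sref_of_pos (R.wordW_mem_Aut _) h3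
  rw [wordW_concat, mul_assoc, sref_mul_self, mul_one, ← wordW_concat] at this
  omega

include h0 hP

/-- Matsumoto's theorem. -/
theorem matsumoto (n : ℕ) : ∀ l l' : List I, R.wordW l = R.wordW l' → l.length = n → l'.length = n →
    R.length (R.wordW l) = n → M.toCoxeterSystem.wordProd l = M.toCoxeterSystem.wordProd l' := by
  induction n with
  | zero => intro l l' _ h h' _; rw [List.length_eq_zero_iff.1 h, List.length_eq_zero_iff.1 h']
  | succ n ih =>
  have key : ∀ (a b : List I) (i : I), R.wordW (a ++ [i]) = R.wordW (b ++ [i]) → (a ++ [i]).length = n + 1 →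
      (b ++ [i]).length = n + 1 → R.length (R.wordW (a ++ [i])) = n + 1 →
      M.toCoxeterSystem.wordProd (a ++ [i]) = M.toCoxeterSystem.wordProd (b ++ [i]) := fun a b i e h h' hl => by
    simp only [List.length_append, List.length_singleton, add_left_inj] at h h'
    rw [wordProd_append, wordProd_append, ih a b (by simpa using e) h h' (h ▸ (red_concat (h ▸ hl)).1)]
  intro l l' e h h' hl
  obtain ⟨a, i, rfl⟩ := (List.eq_nil_or_concat' l).resolve_left (by rintro rfl; simp at h)
  obtain ⟨b, j, rfl⟩ := (List.eq_nil_or_concat' l').resolve_left (by rintro rfl; simp at h')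
  have b0 : ∀ m (i j : I), ∀ k ∈ alternatingWord j i m, k ∈ ({i, j} : Set I) := fun m => by
    induction m with
    | zero => simp [alternatingWord]
    | succ m ih =>
      intro i j k hk
      rw [alternatingWord_succ, List.concat_eq_append, List.mem_append, List.mem_singleton] at hk
      exact hk.elim (fun hk => Set.pair_comm i j ▸ ih j i k hk) Or.inl
  have b1 : ∀ i j, ∃ c, braidWord M j i = c ++ [i] := fun i j => by
    obtain ⟨m, hm⟩ := Nat.exists_eq_succ_of_ne_zero (h0 j i)
    exact ⟨_, by rw [braidWord, hm, alternatingWord_succ, List.concat_eq_append]⟩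
  obtain ⟨c, hc⟩ := b1 i j
  obtain ⟨c', hc'⟩ := b1 j i
  have b2 := M.toCoxeterSystem.wordProd_braidWord_eq j i
  have b3 : R.wordW (braidWord M j i) = R.wordW (braidWord M i j) := by rw [← lift_wordProd hL, b2, lift_wordProd]
  have b4 : ∀ {i j c}, braidWord M j i = c ++ [i] → ¬ R.IsPos (R.wordW (braidWord M j i) (R.simple i)) :=
    fun {i j c} hc => by
      have := length_alternatingWord j i (M j i)
      have h1 := hP j i
      rw [← braidWord, hc] at this
      rw [hc] at h1 ⊢
      exact (red_concat (by rw [h1, ← this]; simp)).2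
  have u0 := R.wordW_mem_WJ (b0 (M j i) i j)
  have u1 := eq_w0J u0 (by rintro k (rfl | rfl); exacts [b4 hc, b3 ▸ b4 hc'])
  obtain ⟨v, hv, hd⟩ := exists_min_coset_rep {i, j} (R.wordW_mem_Aut (a ++ [i]))
  have hw := mul_mem (R.wordW_mem_W (a ++ [i])) (R.WJ_le_W _ hv)
  have u2 : v⁻¹ = R.w0J {i, j} := eq_w0J (inv_mem hv) fun k hk hp => by
    have := Aut.isPos_of_forall_simple (R.W_le_Aut hw) hp fun m hm => hd m (by
      by_contra hm'
      exact hm.ne' ((inSub_apply_iff (inv_mem hv)).2 (inSub_simple.2 hk) m hm'))
    rw [← Equiv.Perm.mul_apply, mul_inv_cancel_right] at this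
    rcases hk with rfl | rfl
    · exact (red_concat (by simpa using hl.trans h.symm)).2 this
    · rw [e] at this hl
      exact (red_concat (by simpa using hl.trans h'.symm)).2 this
  obtain ⟨d, d1, d2⟩ := exists_reduced hw
  have u3 := length_mul_of_min_coset_rep (R.W_le_Aut hw) hd (inv_mem hv)
  rw [mul_inv_cancel_right, hl, ← d2, u2, ← u1, hP] at u3
  have u4 : R.wordW (a ++ [i]) = R.wordW (d ++ braidWord M j i) := by
    rw [wordW_append R d, d1, u1, ← u2, mul_inv_cancel_right]
  have u5 : R.wordW (b ++ [j]) = R.wordW (d ++ braidWord M i j) := by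
    rw [← e, u4, wordW_append, wordW_append, b3]
  have l4 : (d ++ braidWord M j i).length = n + 1 := by simp [u3]
  have l5 : (d ++ braidWord M i j).length = n + 1 := by simp [u3, M.symmetric i j]
  rw [hc, ← List.append_assoc] at u4 l4
  rw [hc', ← List.append_assoc] at u5 l5
  rw [key _ _ _ u4 h l4 hl, key _ _ _ u5 h' l5 (e ▸ hl), List.append_assoc, List.append_assoc, ← hc, ← hc',
    wordProd_append, wordProd_append, b2]

theorem exists_red (l : List I) : ∃ l', R.wordW l' = R.wordW l ∧ l'.length = R.length (R.wordW l) ∧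
    M.toCoxeterSystem.wordProd l' = M.toCoxeterSystem.wordProd l := by
  induction l using List.reverseRecOn with
  | nil => exact ⟨[], rfl, by simp, rfl⟩
  | append_singleton l i ih =>
  obtain ⟨a, h1, h2, h3⟩ := ih
  by_cases h : R.IsPos (R.wordW l (R.simple i))
  · exact ⟨a ++ [i], by simp [h1], by simp [h2, length_mul_sref_of_pos (R.wordW_mem_Aut l) h],
      by simp [wordProd_append, h3]⟩
  · obtain ⟨d, d1, d2⟩ := exists_reduced (R.wordW_mem_W (l ++ [i]))
    have := length_mul_sref_of_neg (R.wordW_mem_Aut l) h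
    rw [← wordW_concat] at this
    refine ⟨d, d1, d2, ?_⟩
    rw [wordProd_append, ← h3, matsumoto hL h0 hP _ a (d ++ [i]) (by simp [h1, d1, mul_assoc]) rfl
      (by simp [h2, d2, ← this]) (by rw [h1, h2]), wordProd_append, wordProd_singleton, simple_mul_simple_cancel_right]

/-- The Coxeter group is the Weyl group. -/
theorem exists_equiv : ∃ e : M.Group ≃* R.W, ∀ l : List I, (e (l.map M.simple).prod).1 = R.wordW l := by
  let f : M.Group →* R.W := (M.toCoxeterSystem.lift ⟨_, hL⟩).codRestrict _ fun g => by
    obtain ⟨l, rfl⟩ := M.toCoxeterSystem.wordProd_surjective g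
    rw [lift_wordProd]; exact R.wordW_mem_W l
  refine ⟨MulEquiv.ofBijective f ⟨(injective_iff_map_eq_one _).2 fun g hg => ?_, fun w => ?_⟩, lift_wordProd hL⟩
  · obtain ⟨l, rfl⟩ := M.toCoxeterSystem.wordProd_surjective g
    obtain ⟨a, -, h2, h3⟩ := exists_red hL h0 hP l
    rw [← lift_wordProd hL, show M.toCoxeterSystem.lift ⟨_, hL⟩ _ = 1 from congrArg Subtype.val hg, RSys.length_one,
      List.length_eq_zero_iff] at h2
    rw [← h3, h2, wordProd_nil]
  · obtain ⟨l, hl⟩ := R.mem_W_iff.1 w.2
    exact ⟨_, Subtype.ext ((lift_wordProd hL l).trans hl)⟩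

end

section compute
variable {n : ℕ}

/-- Evaluate an integer. -/
noncomputable def forceZ (z : ℤ) (k : ℤ → Bool) : Bool :=
  Int.rec (motive := fun _ => Bool)
    (fun m => Nat.rec (motive := fun _ => Bool) (k (.ofNat 0)) (fun a _ => k (.ofNat a.succ)) m)
    (fun m => Nat.rec (motive := fun _ => Bool) (k (.negSucc 0)) (fun a _ => k (.negSucc a.succ)) m) z

theorem forceZ_eq (z : ℤ) (k : ℤ → Bool) : forceZ z k = k z := by rcases z with (_ | _) | (_ | _) <;> rfl

/-- Evaluate a list of integers. -/
noncomputable def forceL (l : List ℤ) (k : List ℤ → Bool) : Bool :=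
  List.rec (motive := fun _ => (List ℤ → Bool) → Bool) (fun k => k [])
    (fun a _ ih k => forceZ a fun a => ih fun l' => k (a :: l')) l k

theorem forceL_eq (l : List ℤ) (k : List ℤ → Bool) : forceL l k = k l := by
  induction l generalizing k with
  | nil => rfl
  | cons a l ih => exact (forceZ_eq a fun a => forceL l fun l' => k (a :: l')).trans (ih _)

/-- A fundamental reflection on a coordinate vector. -/
def rfL (C : List (List ℤ)) (i : ℕ) (v : List ℤ) : List ℤ :=
  v.set i (v.getD i 0 - (List.zipWith (· * ·) (C.getD i []) v).sum)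

/-- A word on a coordinate vector. -/
noncomputable def actL (C : List (List ℤ)) (l : List (Fin n)) (v : List ℤ) (k : List ℤ → Bool) : Bool :=
  List.rec (motive := fun _ => (List ℤ → Bool) → Bool) (fun k => k v)
    (fun i _ ih k => ih fun v' => forceL (rfL C i v') k) l k

/-- A unit vector. -/
def eL (i : Fin n) : List ℤ := List.ofFn (Pi.single i 1 : Fin n → ℤ)

variable {ι : Type*} {R : RSys ι (Fin n)} {C : List (List ℤ)} (hC : ∀ i : Fin n, C.getD i [] = List.ofFn (R.C i))
include hC

theorem actL_eq (l : List (Fin n)) (r : ι) (k : List ℤ → Bool) :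
    actL C l (List.ofFn (R.rc r)) k = k (List.ofFn (R.rc (R.wordW l r))) := by
  induction l generalizing k with
  | nil => rfl
  | cons i l ih =>
    refine (ih _).trans ((forceL_eq _ _).trans (congrArg k ?_))
    rw [wordW_cons, Equiv.Perm.mul_apply, rc_sref, pair_simple_left, rfL, hC]
    generalize R.rc (R.wordW l r) = v
    rw [show List.zipWith (· * ·) (List.ofFn (R.C i)) (List.ofFn v) = List.ofFn fun j => R.C i j * v j from
      List.ext_getElem (by simp) (by simp), List.sum_ofFn]
    refine List.ext_getElem (by simp) fun k h1 h2 => ?_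
    by_cases e : i.1 = k
    · subst e; simp
    · simp [List.getElem_set_ne e, Fin.ext_iff, Ne.symm e]

theorem actL_simple (l : List (Fin n)) (i : Fin n) (k : List ℤ → Bool) :
    actL C l (eL i) k = k (List.ofFn (R.rc (R.wordW l (R.simple i)))) := by
  rw [← actL_eq hC l _ k, R.rc_simple, eL]

theorem apply_eq {l l' : List (Fin n)} {i j : Fin n}
    (h : actL C l (eL i) (fun v => actL C l' (eL j) fun v' => decide (v = v')) = true) :
    R.wordW l (R.simple i) = R.wordW l' (R.simple j) := by
  rw [actL_simple hC, actL_simple hC, decide_eq_true_eq, List.ofFn_inj] at h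
  exact R.rc_inj h

theorem apply_eq_neg {l : List (Fin n)} {i j : Fin n}
    (h : actL C l (eL i) (fun v => decide (v = (eL j).map (-·))) = true) :
    R.wordW l (R.simple i) = R.neg (R.simple j) := by
  rw [actL_simple hC, decide_eq_true_eq, eL, List.map_ofFn, List.ofFn_inj] at h
  exact R.rc_inj (by rw [h, R.rc_neg, R.rc_simple]; rfl)

theorem wordW_eq {l l' : List (Fin n)}
    (h : ∀ i : Fin n, actL C l (eL i) (fun v => actL C l' (eL i) fun v' => decide (v = v')) = true) :
    R.wordW l = R.wordW l' :=
  Aut.ext_simple (R.wordW_mem_Aut l) (R.wordW_mem_Aut l') fun i => apply_eq hC (h i)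

theorem length_eq [Fintype ι] [DecidableEq ι] {l : List (Fin n)} (h : ∀ t : Fin l.length,
    actL C (l.take t) (eL l[t]) (fun v => v.all fun a => decide (0 ≤ a)) = true) : R.length (R.wordW l) = l.length := by
  have : ∀ t ≤ l.length, R.length (R.wordW (l.take t)) = t := fun t => by
    induction t with
    | zero => simp
    | succ t ih =>
      intro ht
      have h1 := h ⟨t, ht⟩
      rw [actL_simple hC] at h1
      rw [List.take_add_one, List.getElem?_eq_getElem ht, Option.toList_some, wordW_concat,
        length_mul_sref_of_pos (R.wordW_mem_Aut _) (fun k => by simpa using List.all_eq_true.1 h1 _ (by simp)),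
        ih (by omega)]
  simpa using this _ le_rfl

omit hC in
/-- The checks for a Coxeter matrix. -/
abbrev coxChk (C : List (List ℤ)) (M : CoxeterMatrix (Fin n)) : Prop := ∀ i j, M i j ≠ 0 ∧
  (∀ k : Fin n, actL C (List.replicate (M i j) [i, j]).flatten (eL k) (fun v => actL C ([] : List (Fin n)) (eL k) fun v' =>
    decide (v = v')) = true) ∧ ∀ t : Fin (braidWord M i j).length,
  actL C ((braidWord M i j).take t) (eL (braidWord M i j)[t]) (fun v => v.all fun a => decide (0 ≤ a)) = true

theorem equiv_of_chk [Fintype ι] [DecidableEq ι] {M : CoxeterMatrix (Fin n)} (h : coxChk C M) :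
    ∃ e : M.Group ≃* R.W, ∀ l : List (Fin n), (e (l.map M.simple).prod).1 = R.wordW l := by
  refine exists_equiv (fun i j => ?_) (fun i j => (h i j).1) fun i j => by simpa using length_eq hC (h i j).2.2
  have := wordW_eq hC (h i j).2.1
  rw [wordW_nil] at this
  rw [← this]
  generalize M i j = m
  induction m with
  | zero => simp
  | succ m ih => simp [List.replicate_succ, pow_succ', ih, mul_assoc]

end compute

end Cfsg.Agent.Hk
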