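import Cfsg.Agent.Lib.Char.Gen

/-! The centre of the commuting algebra of a permutation representation. -/

set_option autoImplicit false
set_option linter.unusedSectionVars false

namespace Cfsg.Agent.Hk
open Matrix Cfsg.Agent.Char
open scoped ComplexConjugate ComplexOrder

variable {G X W : Type*} [Group G] [Fintype G] [MulAction G X] [Fintype X] [DecidableEq X]
  [Fintype W] [DecidableEq W]

variable (X) in
/-- The permutation matrix. -/
def rho (g : G) : Matrix X X ℂ := of fun x y => if g • y = x then 1 else 0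

theorem rho_mul_apply (g : G) (M : Matrix X X ℂ) (x y : X) : (rho X g * M) x y = M (g⁻¹ • x) y := by
  simp [rho, mul_apply, ← eq_inv_smul_iff]

theorem mul_rho_apply (g : G) (M : Matrix X X ℂ) (x y : X) : (M * rho X g) x y = M x (g • y) := by
  simp [rho, mul_apply]

theorem rho_mul (g h : G) : rho X g * rho X h = rho X (g * h) := by
  ext x y; rw [rho_mul_apply]; simp [rho, mul_smul, eq_inv_smul_iff]

theorem rho_conjTranspose (g : G) : (rho X g)ᴴ = rho X g⁻¹ := by
  ext x y; simp [rho, inv_smul_eq_iff, eq_comm (a := y), apply_ite star]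

variable (G X) in
/-- The permutation character. -/
noncomputable def pch : G → ℂ := fun g => (Nat.card (MulAction.fixedBy X g) : ℂ)

theorem trace_rho (g : G) : (rho X g).trace = pch G X g := by
  simp [rho, trace, pch, Fintype.card_subtype]

variable (X) in
/-- The operator of a function on the group. -/
noncomputable def psi (f : G → ℂ) : Matrix X X ℂ := ∑ g, f g • rho X g

/-- The operator of the conjugate of a character. -/
noncomputable def psiC (X : Type*) [MulAction G X] [DecidableEq X] (χ : IrrCharacter G) : Matrix X X ℂ :=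
  psi X fun g => conj (χ.1 g)

theorem trace_psiC (χ : IrrCharacter G) (g : G) :
    (psiC X χ * rho X g).trace = (classInner (pch G X) χ * Nat.card G / χ.1 1) * χ.1 g := by
  have := Fintype.ofFinite (IrrCharacter G)
  have hπ : IsClassFunction G (pch G X) := isClass_of_isChar (isChar_perm X)
  simp only [psiC, psi, Finset.sum_mul, smul_mul_assoc, rho_mul, trace_sum, trace_smul, trace_rho, smul_eq_mul]
  simp only [class_apply_eq_sum_irr hπ, Finset.mul_sum]
  rw [Finset.sum_comm, Finset.sum_eq_single χ _ (by simp)]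
  · simp only [mul_left_comm _ (classInner _ _), ← Finset.mul_sum,
      sum_class_mul_irr χ.2 (isClass_conj (isClass_of_irr χ.2))]
    have := inner_irr_self χ.2
    rw [classInner, inv_mul_eq_one₀ natCard_ne_zero] at this
    simp only [this, mul_comm (conj _)]; ring
  · intro ψ _ h
    have := inner_irr_ne ψ.2 χ.2 (fun e => h (Subtype.ext e))
    rw [classInner, mul_eq_zero, inv_eq_zero, or_iff_right natCard_ne_zero] at this
    simp only [mul_left_comm _ (classInner _ _), ← Finset.mul_sum,
      sum_class_mul_irr ψ.2 (isClass_conj (isClass_of_irr χ.2))]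
    simp only [mul_comm (conj _), this]; simp

theorem psiC_eq_zero {χ : IrrCharacter G} (h : classInner (pch G X) χ = 0) : psiC X χ = 0 := by
  rw [← trace_mul_conjTranspose_self_eq_zero_iff]
  nth_rw 2 [psiC]
  simp [psi, conjTranspose_sum, Finset.mul_sum, rho_conjTranspose, trace_psiC, h]

theorem psiC_indep : LinearIndependent ℂ fun χ : {χ : IrrCharacter G // classInner (pch G X) χ ≠ 0} => psiC X χ.1 := by
  let τ : Matrix X X ℂ →ₗ[ℂ] (G → ℂ) := LinearMap.pi fun g => traceLinearMap X ℂ ℂ ∘ₗ LinearMap.mulRight ℂ (rho X g)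
  refine LinearIndependent.of_comp τ ?_
  have := ((linearIndependent_irr (G := G)).comp (fun χ : {χ : IrrCharacter G // classInner (pch G X) χ ≠ 0} => χ.1)
    Subtype.val_injective).units_smul fun χ => Units.mk0 (classInner (pch G X) χ.1 * Nat.card G / χ.1.1 1)
      (div_ne_zero (mul_ne_zero χ.2 natCard_ne_zero) (irr_one_ne_zero χ.1.2))
  convert this using 1
  ext χ g
  simp [τ, trace_psiC, Units.smul_def]

theorem psi_mem_span {f : G → ℂ} (hf : IsClassFunction G f) : psi X f ∈ Submodule.span ℂ
    (Set.range fun χ : {χ : IrrCharacter G // classInner (pch G X) χ ≠ 0} => psiC X χ.1) := by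
  have := Fintype.ofFinite (IrrCharacter G)
  have e : psi X f = ∑ χ : IrrCharacter G, conj (classInner (fun g => conj (f g)) χ) • psiC X χ := by
    simp only [psiC, psi, Finset.smul_sum, smul_smul]
    rw [Finset.sum_comm]
    refine Finset.sum_congr rfl fun g _ => ?_
    rw [← Finset.sum_smul, ← Complex.conj_conj (f g), class_apply_eq_sum_irr (isClass_conj hf) g, map_sum]
    simp only [map_mul]
  rw [e]
  refine Submodule.sum_mem _ fun χ _ => Submodule.smul_mem _ _ ?_
  by_cases h : classInner (pch G X) χ = 0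
  · rw [psiC_eq_zero h]; exact zero_mem _
  · exact Submodule.subset_span ⟨⟨χ, h⟩, rfl⟩

theorem psi_smul {f : G → ℂ} (hf : IsClassFunction G f) (g : G) (x y : X) : psi X f (g • x) (g • y) = psi X f x y := by
  simp only [psi, Matrix.sum_apply, Matrix.smul_apply, rho, of_apply]
  refine (Fintype.sum_equiv (MulAut.conj g).toEquiv _ _ fun h => ?_).symm
  simp [hf h g, mul_smul]

/-- A labelling of the orbitals. -/
structure Orb (G : Type*) [Group G] [MulAction G X] (δ : X → X → W) : Prop where
  inv : ∀ (g : G) x y, δ (g • x) (g • y) = δ x y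
  trans : ∀ x y x' y', δ x y = δ x' y' → ∃ g : G, g • x = x' ∧ g • y = y'
  surj : ∀ w, ∃ x y, δ x y = w

/-- The invariant matrix of a function on the orbitals. -/
def phi (δ : X → X → W) : (W → ℂ) →ₗ[ℂ] Matrix X X ℂ where
  toFun v := of fun x y => v (δ x y)
  map_add' _ _ := rfl
  map_smul' _ _ := rfl

/-- The adjacency matrix of an orbital. -/
def adj (δ : X → X → W) (w : W) : Matrix X X ℂ := phi δ (Pi.single w 1)

theorem phi_apply (δ : X → X → W) (v : W → ℂ) (x y : X) : phi δ v x y = v (δ x y) := rfl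

theorem adj_apply (δ : X → X → W) (w : W) (x y : X) : adj δ w x y = if δ x y = w then 1 else 0 := by
  simp [adj, phi_apply, Pi.single_apply]

theorem phi_eq_sum (δ : X → X → W) (v : W → ℂ) : phi δ v = ∑ w, v w • adj δ w := by
  ext x y; simp [Matrix.sum_apply, adj_apply, phi_apply]

namespace Orb
variable {δ : X → X → W} (h : Orb G δ)
include h

theorem phi_inj : Function.Injective (phi δ) := fun v v' e => funext fun w => by
  obtain ⟨x, y, rfl⟩ := h.surj w
  exact congrFun (congrFun e x) y

theorem rho_comm (g : G) (v : W → ℂ) : rho X g * phi δ v = phi δ v * rho X g := by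
  ext x y; rw [rho_mul_apply, mul_rho_apply, phi_apply, phi_apply, ← h.inv g, smul_inv_smul]

theorem psi_comm (f : G → ℂ) (v : W → ℂ) : psi X f * phi δ v = phi δ v * psi X f := by
  simp only [psi, Finset.sum_mul, Finset.mul_sum, smul_mul_assoc, mul_smul_comm, h.rho_comm]

theorem exists_phi {f : G → ℂ} (hf : IsClassFunction G f) : ∃ v, phi δ v = psi X f := by
  choose a b e using h.surj
  refine ⟨fun w => psi X f (a w) (b w), Matrix.ext fun x y => ?_⟩
  obtain ⟨g, h1, h2⟩ := h.trans _ _ _ _ (e (δ x y))
  rw [phi_apply, ← psi_smul hf g, h1, h2]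

theorem card_transp (x u y v : X) : ((Finset.univ.filter fun g : G => g • y = x ∧ g • v = u).card : ℂ) *
    (Finset.univ.filter fun p : X × X => δ p.1 p.2 = δ x u).card = if δ y v = δ x u then (Fintype.card G : ℂ) else 0 := by
  classical
  split_ifs with e
  · obtain ⟨g, rfl, rfl⟩ := h.trans _ _ _ _ e
    rw [← MulAction.card_orbit_mul_card_stabilizer_eq_card_group G (y, v), mul_comm, Nat.cast_mul]
    congr 2
    · rw [Fintype.card_subtype]
      congr 1; ext p
      simp only [Finset.mem_filter, Finset.mem_univ, true_and, h.inv]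
      exact ⟨fun e => (h.trans _ _ _ _ e.symm).imp fun g e => Prod.ext e.1 e.2, fun ⟨g, e⟩ => e ▸ h.inv g y v⟩
    · rw [Fintype.card_subtype]
      refine Finset.card_equiv (Equiv.mulLeft g⁻¹) fun k => ?_
      simp [mul_smul, inv_smul_eq_iff]
  · rw [Finset.filter_false_of_mem, Finset.card_empty, Nat.cast_zero, zero_mul]
    rintro g - ⟨rfl, rfl⟩
    exact e (h.inv g y v).symm

theorem casimir {c : W → ℂ} {κ : ℂ}
    (hc : ∀ w, c w * (Finset.univ.filter fun p : X × X => δ p.1 p.2 = w).card = κ * Fintype.card G)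
    (M : Matrix X X ℂ) :
    ∑ w, c w • (adj δ w * M * (adj δ w)ᵀ) = κ • psi X fun g : G => (rho X g⁻¹ * M).trace := by
  ext x y
  have k : ∀ u v, ∑ w, c w * (adj δ w x u * M u v * adj δ w y v) =
      κ * ∑ g : G, (if g • v = u then M u v else 0) * if g • y = x then 1 else 0 := fun u v => by
    have h0 : ((Finset.univ.filter fun p : X × X => δ p.1 p.2 = δ x u).card : ℂ) ≠ 0 :=
      Nat.cast_ne_zero.2 (Finset.card_ne_zero.2 ⟨(x, u), by simp⟩)
    have h1 := h.card_transp x u y v
    have h2 := hc (δ x u)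
    have h3 : ∑ g : G, ((if g • v = u then M u v else 0) * if g • y = x then 1 else 0) =
        (Finset.univ.filter fun g : G => g • y = x ∧ g • v = u).card * M u v := by
      rw [Finset.card_filter, Nat.cast_sum, Finset.sum_mul]
      exact Finset.sum_congr rfl fun g _ => by by_cases a : g • y = x <;> by_cases b : g • v = u <;> simp [a, b]
    rw [h3, Finset.sum_eq_single (δ x u) (fun w _ e => by simp [adj_apply, e.symm]) (by simp)]
    apply mul_right_cancel₀ h0
    simp only [adj_apply, if_true]
    split_ifs at h1 ⊢ with e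
    · linear_combination M u v * h2 - κ * M u v * h1
    · linear_combination - κ * M u v * h1
  simp only [Matrix.sum_apply, Matrix.smul_apply, mul_apply, transpose_apply, smul_eq_mul, Finset.mul_sum, Finset.sum_mul, psi,
    trace, diag_apply]
  rw [Finset.sum_comm]
  simp only [Finset.sum_comm (s := (Finset.univ : Finset W)), k, Finset.mul_sum]
  rw [Finset.sum_comm (s := (Finset.univ : Finset G))]
  refine Finset.sum_congr rfl fun v _ => Finset.sum_comm.trans (Finset.sum_congr rfl fun g _ => ?_)
  simp [rho, inv_smul_eq_iff, eq_comm (b := g • v)]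

theorem ranks {l : Type*} [Fintype l] {D : Matrix l W ℂ} {Γ : Matrix W W ℂ}
    (hD : ∀ v, D *ᵥ v = 0 ↔ ∀ w, adj δ w * phi δ v = phi δ v * adj δ w) {c : W → ℂ} {κ : ℂ}
    (hc : ∀ w, c w * (Finset.univ.filter fun p : X × X => δ p.1 p.2 = w).card = κ * Fintype.card G)
    (hΓ : ∀ v, phi δ (Γ *ᵥ v) = ∑ w, c w • (adj δ w * phi δ v * (adj δ w)ᵀ))
    (hp : ∀ w, 0 < c w) {w₀ : W} (h0 : adj δ w₀ = 1) :
    D * Γ = 0 ∧ D.rank + Γ.rank = Fintype.card W ∧
      Γ.rank = Nat.card {χ : IrrCharacter G // classInner (pch G X) χ ≠ 0} := by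
  have hf : ∀ v, IsClassFunction G fun g : G => (rho X g⁻¹ * phi δ v).trace := fun v g k => by
    simp only [_root_.mul_inv_rev, inv_inv, ← rho_mul, ← mul_assoc]
    rw [mul_assoc, h.rho_comm, ← mul_assoc, trace_mul_comm, ← mul_assoc, ← mul_assoc, rho_mul, rho_mul]; simp
  have k1 : ∀ v, D *ᵥ (Γ *ᵥ v) = 0 := fun v => (hD _).2 fun w => by
    rw [hΓ, h.casimir hc, mul_smul_comm, smul_mul_assoc, adj, h.psi_comm]
  have k2 : LinearMap.range Γ.mulVecLin = LinearMap.ker D.mulVecLin := by
    have hle : LinearMap.range Γ.mulVecLin ≤ LinearMap.ker D.mulVecLin := by rintro _ ⟨v, rfl⟩; exact k1 v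
    refine Submodule.eq_of_le_of_finrank_le hle ?_
    refine LinearMap.finrank_le_finrank_of_injective (f := Γ.mulVecLin.rangeRestrict.domRestrict _)
      ((injective_iff_map_eq_zero _).2 fun v e => Subtype.ext (h.phi_inj ?_))
    have e1 := hΓ v
    rw [show Γ *ᵥ v.1 = 0 from congrArg Subtype.val e, map_zero] at e1
    have e2 : ∀ w, (adj δ w)ᵀ = (adj δ w)ᴴ := fun w => by ext; simp [adj_apply, apply_ite]
    have e3 : (∑ w, c w • (adj δ w * (adj δ w)ᵀ)).PosDef := by
      rw [← Finset.add_sum_erase _ _ (Finset.mem_univ w₀), h0, transpose_one, mul_one]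
      refine (PosDef.one.smul (hp w₀)).add_posSemidef (posSemidef_sum _ fun w _ => ?_)
      rw [e2]; exact (posSemidef_self_mul_conjTranspose _).smul (hp w).le
    rw [← e3.isUnit.mul_left_inj, ZeroMemClass.coe_zero, map_zero, zero_mul, e1, Finset.mul_sum]
    simp only [(hD v).1 v.2, mul_smul_comm, mul_assoc]
  refine ⟨Matrix.ext_of_mulVec_single fun i => by rw [← mulVec_mulVec, k1, zero_mulVec], ?_, ?_⟩
  · rw [rank, rank, k2, LinearMap.finrank_range_add_finrank_ker, Module.finrank_fintype_fun_eq_card]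
  · have := Fintype.ofFinite {χ : IrrCharacter G // classInner (pch G X) χ ≠ 0}
    rw [Nat.card_eq_fintype_card, ← finrank_span_eq_card psiC_indep, rank,
      (Submodule.equivMapOfInjective _ h.phi_inj _).finrank_eq]
    refine congrArg (fun S : Submodule ℂ (Matrix X X ℂ) => Module.finrank ℂ S) (le_antisymm ?_ (Submodule.span_le.2 ?_))
    · rintro _ ⟨_, ⟨v, rfl⟩, rfl⟩
      rw [mulVecLin_apply, hΓ, h.casimir hc]
      exact Submodule.smul_mem _ _ (psi_mem_span (hf v))
    · rintro _ ⟨χ, rfl⟩
      obtain ⟨v, hv⟩ := h.exists_phi (isClass_conj (isClass_of_irr χ.1.2))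
      refine ⟨v, k2.ge ((hD v).2 fun w => ?_), hv⟩
      rw [hv, adj, h.psi_comm]

end Orb

end Cfsg.Agent.Hk
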