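import Cfsg.Agent.Lib.Hk.Rank
import Cfsg.Agent.Lib.Hk.Perm
import Cfsg.Agent.Lib.Chev.RGD2

/-! The Hecke algebra of a building and the number of constituents of its permutation character. -/

set_option autoImplicit false
set_option linter.unusedSectionVars false

namespace Cfsg.Agent.Hk
open Matrix Polynomial Cfsg.Agent.Char Cfsg.Agent.Chev Cfsg.Agent.Chev.RSys
open scoped ComplexOrder

variable {ι I : Type*} [Fintype I] [DecidableEq I] [Fintype ι] [DecidableEq ι] (R : RSys ι I) [Fintype R.W]

/-- A fundamental reflection in the Weyl group. -/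
noncomputable def sW (i : I) : R.W := ⟨R.sref i, R.sref_mem_W i⟩

/-- Multiplication by `s_i` on the left increases the length. -/
def Up (i : I) (w : R.W) : Prop := R.IsPos ((w⁻¹).1 (R.simple i))

instance (i : I) (w : R.W) : Decidable (Up R i w) := R.decIsPos _

/-- A reduced word. -/
noncomputable def red (w : R.W) : List I := (exists_reduced w.2).choose

section
variable {K K' : Type*} [CommRing K] [CommRing K']

/-- Left multiplication by a generator of the Hecke algebra. -/
noncomputable def Ls (t : K) (i : I) : Matrix R.W R.W K := of fun u w =>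
  if Up R i u then (if w = sW R i * u then t else 0)
  else (if w = sW R i * u then 1 else 0) + if w = u then t - 1 else 0

/-- Left multiplication by a basis element of the Hecke algebra. -/
noncomputable def Lw (t : K) (w : R.W) : Matrix R.W R.W K := ((red R w).map (Ls R t)).prod

/-- The commutator map. -/
noncomputable def Dm (t : K) : Matrix (R.W × R.W) R.W K := of fun p v => Lw R t p.1 p.2 v - Lw R t v p.2 p.1

/-- The Casimir map. -/
noncomputable def Gm (t : K) : Matrix R.W R.W K :=
  of fun u v => ∑ w : R.W, t ^ (Fintype.card ι - R.length w.1) * (Lw R t w * Lw R t v) u w⁻¹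

theorem Lw_map (φ : K →+* K') (t : K) (w : R.W) : (Lw R t w).map φ = Lw R (φ t) w := by
  rw [Lw, Lw, ← RingHom.mapMatrix_apply, map_list_prod, List.map_map]
  congr 2; ext i u w
  simp [Ls, apply_ite φ]

theorem Dm_map (φ : K →+* K') (t : K) : (Dm R t).map φ = Dm R (φ t) := by
  ext; simp [Dm, ← Lw_map]

theorem Gm_map (φ : K →+* K') (t : K) : (Gm R t).map φ = Gm R (φ t) := by
  ext; simp [Gm, ← Lw_map, mul_apply]

end

variable {R}

theorem sW_mul_sW (i : I) (w : R.W) : sW R i * (sW R i * w) = w := Subtype.ext (by simp [sW, ← mul_assoc])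

theorem up_mul_iff {i : I} {w : R.W} : Up R i (sW R i * w) ↔ ¬ Up R i w := by
  rw [Up, Up, ← isPos_neg_iff, ← Aut.neg_apply (R.W_le_Aut (w⁻¹).2), ← sref_simple]
  simp [sW]

theorem sW_mul_ne (i : I) (w : R.W) : sW R i * w ≠ w := fun h => by
  have := up_mul_iff (i := i) (w := w); rw [h] at this; exact iff_not_self this

/-- A building with a transitive group. -/
structure Bld (G : Type*) {X : Type*} [Group G] [MulAction G X] (δ : X → X → R.W) (q : ℕ) : Prop where
  inv : ∀ (g : G) x y, δ (g • x) (g • y) = δ x y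
  trans : ∀ x y x' y', δ x y = δ x' y' → ∃ g : G, g • x = x' ∧ g • y = y'
  ne : Nonempty X
  pos : 0 < q
  symm : ∀ x y, δ y x = (δ x y)⁻¹
  one : ∀ x y, δ x y = 1 ↔ x = y
  up : ∀ x y z i, δ x y = sW R i → Up R i (δ y z) → δ x z = sW R i * δ y z
  any : ∀ x y z i, δ x y = sW R i → δ x z = sW R i * δ y z ∨ δ x z = δ y z
  ex : ∀ x z i, ¬ Up R i (δ x z) → ∃ y, δ x y = sW R i ∧ δ y z = sW R i * δ x z
  card : ∀ x w, Nat.card {y // δ x y = w} = q ^ R.length w.1

namespace Bld
variable {G X : Type*} [Group G] [Fintype G] [MulAction G X] [Fintype X] [DecidableEq X] {δ : X → X → R.W} {q : ℕ}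
  (h : Bld G δ q)
include h

theorem card' (x : X) (w : R.W) : (Finset.univ.filter fun y => δ x y = w).card = q ^ R.length w.1 := by
  rw [← h.card x, Nat.card_eq_fintype_card, Fintype.card_subtype]

theorem orb : Orb G δ := ⟨h.inv, h.trans, fun w => by
  obtain ⟨x⟩ := h.ne
  obtain ⟨y, hy⟩ := Finset.card_pos.1 ((h.card' x w).symm ▸ pow_pos h.pos _)
  exact ⟨x, y, by simpa using hy⟩⟩

theorem adj_one : adj δ 1 = 1 := by ext x y; simp [adj_apply, h.one, one_apply]

theorem adj_inv (w : R.W) : adj δ w⁻¹ = (adj δ w)ᵀ := by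
  ext x y; simp [adj_apply, h.symm x y, inv_eq_iff_eq_inv]

theorem phi_Ls (i : I) (v : R.W → ℂ) : phi δ (Ls R (q : ℂ) i *ᵥ v) = adj δ (sW R i) * phi δ v := by
  ext x z
  have hc := h.card' x (sW R i)
  rw [show R.length (sW R i).1 = 1 from length_sref i, pow_one] at hc
  have hs : ∀ {a b}, δ a b = sW R i → δ b a = sW R i := fun e => by
    rw [h.symm, e]; exact Subtype.ext (R.sref_inv i)
  simp only [phi_apply, mul_apply, adj_apply, ite_mul, one_mul, zero_mul, ← Finset.sum_filter]
  by_cases hu : Up R i (δ x z)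
  · rw [Finset.sum_congr rfl (g := fun _ => v (sW R i * δ x z)) fun y hy => by
      rw [h.up y x z i (hs (by simpa using hy)) hu]]
    simp [Ls, mulVec, dotProduct, hu, hc]
  · obtain ⟨y, h1, h2⟩ := h.ex x z i hu
    rw [← Finset.add_sum_erase _ _ (a := y) (by simpa using h1), h2,
      Finset.sum_congr rfl (g := fun _ => v (δ x z)) fun y' hy => ?_]
    · rw [Finset.sum_const, Finset.card_erase_of_mem (by simpa using h1), hc, nsmul_eq_mul, Nat.cast_pred h.pos]
      simp [Ls, mulVec, dotProduct, hu, add_mul, Finset.sum_add_distrib]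
    · simp only [Finset.mem_erase, Finset.mem_filter, Finset.mem_univ, true_and] at hy
      rcases h.any y' x y i (hs hy.2) with e | e
      · rw [h1, ← mul_one (sW R i), mul_assoc, one_mul, sW_mul_sW, h.one] at e
        exact absurd e hy.1
      · rw [h.up y' y z i (e.trans h1) (h2 ▸ up_mul_iff.2 hu), h2, sW_mul_sW]

theorem adj_mul {i : I} {w : R.W} (hu : Up R i w) : adj δ (sW R i) * adj δ w = adj δ (sW R i * w) := by
  rw [adj, adj, adj, ← adj, ← h.phi_Ls]
  congr 1; ext u
  have := up_mul_iff (i := i) (w := w)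
  simp only [mulVec_single_one, Ls, col_apply, of_apply, Pi.single_apply]
  by_cases e : u = sW R i * w
  · subst e; simp [sW_mul_sW, this, hu, (sW_mul_ne i w).symm]
  · have e1 : w ≠ sW R i * u := fun e' => e (by rw [e', sW_mul_sW])
    by_cases e2 : w = u
    · subst e2; simp [hu, e]
    · simp [e, e1, e2]

theorem phi_word (l : List I) (hl : l.length = R.length (R.wordW l)) (v : R.W → ℂ) :
    phi δ ((l.map (Ls R (q : ℂ))).prod *ᵥ v) = adj δ ⟨R.wordW l, R.wordW_mem_W l⟩ * phi δ v := by
  induction l with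
  | nil => rw [show (⟨R.wordW [], _⟩ : R.W) = 1 from rfl, h.adj_one]; simp
  | cons i l ih =>
    have h1 := length_wordW_le (R := R) l
    rw [List.length_cons, wordW_cons] at hl
    have hu : Up R i ⟨R.wordW l, R.wordW_mem_W l⟩ := by
      by_contra hu
      have := length_sref_mul_of_neg (R.wordW_mem_Aut l) hu
      omega
    have := length_sref_mul_of_pos (R.wordW_mem_Aut l) hu
    rw [List.map_cons, List.prod_cons, ← mulVec_mulVec, h.phi_Ls, ih (by omega), ← mul_assoc, h.adj_mul hu]
    congr 2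

theorem phi_Lw (w : R.W) (v : R.W → ℂ) : phi δ (Lw R (q : ℂ) w *ᵥ v) = adj δ w * phi δ v := by
  have := (exists_reduced w.2).choose_spec
  rw [Lw, red, h.phi_word _ (by rw [this.1, this.2])]
  congr 2; exact Subtype.ext this.1

theorem ranks : Dm R (q : ℂ) * Gm R (q : ℂ) = 0 ∧ (Dm R (q : ℂ)).rank + (Gm R (q : ℂ)).rank = Fintype.card R.W ∧
    (Gm R (q : ℂ)).rank = Nat.card {χ : IrrCharacter G // classInner (pch G X) χ ≠ 0} := by
  have k : ∀ (v : R.W → ℂ) w, phi δ (fun u => ∑ a, Lw R (q : ℂ) a u w * v a) = phi δ v * adj δ w := fun v w => by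
    rw [phi_eq_sum δ v, Finset.sum_mul]
    simp only [smul_mul_assoc, adj.eq_1 δ w, ← h.phi_Lw, ← map_smul, ← map_sum]
    congr 1; ext u; simp [mul_comm]
  refine h.orb.ranks (fun v => ?_) (c := fun w => (q : ℂ) ^ (Fintype.card ι - R.length w.1))
    (κ := (q : ℂ) ^ Fintype.card ι * Fintype.card X / Fintype.card G) (fun w => ?_) (fun v => ?_)
    (fun w => pow_pos (Nat.cast_pos.2 h.pos) _) h.adj_one
  · simp only [← h.phi_Lw, ← k, h.orb.phi_inj.eq_iff, funext_iff, Prod.forall]
    simp [Dm, mulVec, dotProduct, sub_mul, sub_eq_zero]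
  · rw [div_mul_cancel₀ _ (Nat.cast_ne_zero.2 Fintype.card_ne_zero), Finset.card_filter, Fintype.sum_prod_type]
    simp only [← Finset.card_filter, h.card', Finset.sum_const, Finset.card_univ, smul_eq_mul]
    push_cast
    rw [mul_left_comm, ← pow_add, Nat.sub_add_cancel (show R.length w.1 ≤ _ from Finset.card_le_univ _), mul_comm]
  · simp only [← h.adj_inv, mul_assoc]
    simp only [← k, ← h.phi_Lw, ← map_smul, ← map_sum]
    congr 1; ext u
    simp only [Gm, mulVec, dotProduct, of_apply, mul_apply, Finset.sum_mul, Finset.mul_sum, Finset.sum_apply,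
      Pi.smul_apply, smul_eq_mul]
    rw [Finset.sum_comm]
    exact Finset.sum_congr rfl fun w _ => Finset.sum_comm.trans (by simp only [mul_assoc])

end Bld

theorem bld_W : Bld R.W (fun x y : R.W => x⁻¹ * y) 1 where
  inv g x y := by simp [mul_assoc]
  trans x y x' y' e := ⟨x' * x⁻¹, by simp, by simp [mul_assoc, e]⟩
  ne := ⟨1⟩
  pos := one_pos
  symm x y := by simp
  one x y := inv_mul_eq_one
  up x y z i e _ := by simp [← e, mul_assoc]
  any x y z i e := Or.inl (by simp [← e, mul_assoc])
  ex x z i _ := ⟨x * sW R i, by simp, by rw [_root_.mul_inv_rev, mul_assoc, show (sW R i)⁻¹ = sW R i from Subtype.ext (R.sref_inv i)]⟩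
  card x w := by simp [inv_mul_eq_iff_eq_mul]

/-- Tits' deformation theorem for the number of constituents. -/
theorem Bld.card_eq (hR : ∀ k : ℕ, ∃ q : ℕ, k < q ∧ Dm R (q : ℂ) * Gm R (q : ℂ) = 0)
    {G X : Type*} [Group G] [Fintype G] [MulAction G X] [Fintype X] [DecidableEq X] {δ : X → X → R.W} {q : ℕ}
    (h : Bld G δ q) :
    Nat.card {χ : IrrCharacter G // classInner (pch G X) χ ≠ 0} = Nat.card (ConjClasses R.W) := by
  have h0 : Dm R (Polynomial.X : ℂ[X]) * Gm R (Polynomial.X : ℂ[X]) = 0 := eq_zero_of_eval fun k => (hR k).imp fun q hq =>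
    ⟨hq.1, by rw [Matrix.map_mul, Dm_map, Gm_map, coe_evalRingHom, eval_X, hq.2]⟩
  have := rank_eq_of_exact h0 (a := (q : ℂ)) (b := ((1 : ℕ) : ℂ))
  simp only [Dm_map, Gm_map] at this
  simp only [coe_evalRingHom, eval_X] at this
  rw [← h.ranks.2.2, this h.ranks.2.1 bld_W.ranks.2.1, bld_W.ranks.2.2, ← card_irr_eq_card_conjClasses]
  refine Nat.card_congr (Equiv.subtypeUnivEquiv fun χ => ?_)
  have : pch R.W R.W = regChar R.W := by
    ext g
    by_cases e : g = 1
    · simp [pch, e, regChar_one]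
    · simp [pch, e, regChar_of_ne e, MulAction.fixedBy]
  rw [this, inner_regChar_char (isChar_of_irr χ.2)]
  exact irr_one_ne_zero χ.2

end Cfsg.Agent.Hk
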