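import Mathlib

/-! Ranks of matrices depending polynomially on a parameter. -/

set_option autoImplicit false

namespace Cfsg.Agent.Hk
open Polynomial Matrix

variable {l m n : Type*} [Fintype l] [Fintype m] [Fintype n] {K : Type*} [Field K]

theorem exists_mul_mul_eq_one (A : Matrix m n K) :
    ∃ (P : Matrix (Fin A.rank) m K) (Q : Matrix n (Fin A.rank) K), P * A * Q = 1 := by
  classical
  let b := Module.finBasis K (LinearMap.range A.mulVecLin)
  obtain ⟨g, hg⟩ := A.mulVecLin.rangeRestrict.exists_rightInverse_of_surjective (LinearMap.range_rangeRestrict _)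
  obtain ⟨p, hp⟩ := (LinearMap.range A.mulVecLin).subtype.exists_leftInverse_of_injective (Submodule.ker_subtype _)
  refine ⟨LinearMap.toMatrix' (b.equivFun.toLinearMap ∘ₗ p), LinearMap.toMatrix' (g ∘ₗ b.equivFun.symm.toLinearMap), ?_⟩
  apply Matrix.toLin'.injective
  rw [toLin'_mul, toLin'_mul, toLin'_toMatrix', toLin'_toMatrix', toLin'_one]
  refine LinearMap.ext fun v => ?_
  have h1 : A.toLin' (g (b.equivFun.symm v)) = (b.equivFun.symm v : m → K) :=
    congrArg Subtype.val (LinearMap.congr_fun hg (b.equivFun.symm v))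
  exact (congrArg (fun x => b.equivFun (p x)) h1).trans ((congrArg b.equivFun
    (LinearMap.congr_fun hp (b.equivFun.symm v))).trans (b.equivFun.apply_symm_apply v))

theorem finite_rank_lt (M : Matrix m n K[X]) (a : K) :
    {c | (M.map (evalRingHom c)).rank < (M.map (evalRingHom a)).rank}.Finite := by
  classical
  obtain ⟨P, Q, h⟩ := exists_mul_mul_eq_one (M.map (evalRingHom a))
  have e : ∀ c, eval c (P.map C * M * Q.map C).det = (P * M.map (evalRingHom c) * Q).det := fun c => by
    rw [← coe_evalRingHom, RingHom.map_det, RingHom.mapMatrix_apply, Matrix.map_mul, Matrix.map_mul, Matrix.map_map,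
      Matrix.map_map]
    congr 3 <;> exact Matrix.ext fun _ _ => eval_C
  refine (rootSet_finite (P.map C * M * Q.map C).det K).subset fun c hc => ?_
  rw [mem_rootSet, coe_aeval_eq_eval]
  refine ⟨fun h0 => by have := e a; rw [h0, h, eval_zero, det_one (n := Fin _)] at this; exact zero_ne_one this, by_contra fun h0 => ?_⟩
  have := rank_of_isUnit _ ((isUnit_iff_isUnit_det _).2 (Ne.isUnit (e c ▸ h0)))
  rw [Fintype.card_fin] at this
  exact absurd (this.ge.trans ((rank_mul_le_left _ _).trans (rank_mul_le_right _ _))) (not_le.2 hc)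

/-- Along a polynomial complex the ranks at two exact points agree. -/
theorem rank_eq_of_exact [Infinite K] {D : Matrix l n K[X]} {Γ : Matrix n m K[X]} (h : D * Γ = 0) {a b : K}
    (ha : (D.map (evalRingHom a)).rank + (Γ.map (evalRingHom a)).rank = Fintype.card n)
    (hb : (D.map (evalRingHom b)).rank + (Γ.map (evalRingHom b)).rank = Fintype.card n) :
    (Γ.map (evalRingHom a)).rank = (Γ.map (evalRingHom b)).rank := by
  obtain ⟨c, hc⟩ := (((finite_rank_lt D a).union (finite_rank_lt D b)).union
    ((finite_rank_lt Γ a).union (finite_rank_lt Γ b))).exists_notMem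
  simp only [Set.mem_union, Set.mem_ofPred_eq, not_or, not_lt] at hc
  have := rank_add_rank_le_card_of_mul_eq_zero (A := D.map (evalRingHom c)) (B := Γ.map (evalRingHom c))
    (by rw [← Matrix.map_mul, h, Matrix.map_zero _ (map_zero _)])
  omega

omit [Fintype l] [Fintype m] in
theorem eq_zero_of_eval [CharZero K] {M : Matrix l m K[X]} (h : ∀ k : ℕ, ∃ q : ℕ, k < q ∧ M.map (evalRingHom (q : K)) = 0) :
    M = 0 := by
  ext1 i j
  refine eq_zero_of_infinite_isRoot _ (Set.infinite_of_not_bddAbove (s := {q : ℕ | IsRoot (M i j) q}) ?_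
    |>.image Nat.cast_injective.injOn |>.mono ?_)
  · rintro ⟨k, hk⟩
    obtain ⟨q, h1, h2⟩ := h k
    exact absurd (hk (show IsRoot (M i j) q from congrFun (congrFun h2 i) j)) (not_le.2 h1)
  · rintro _ ⟨q, hq, rfl⟩; exact hq

end Cfsg.Agent.Hk
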