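import Cfsg.Agent.Lib.Hk.Cox
import Cfsg.Agent.Lib.Chev.Roots
import Cfsg.Agent.Lib.Chev.RGD
import Cfsg.Prelude.Def_ChevStructure

/-! The Coxeter groups of the tabulated types: centres and generators. -/

set_option autoImplicit false
set_option maxRecDepth 100000

namespace Cfsg.Agent.Hk
open Cfsg.Agent.Chev Cfsg.Agent.Chev.RSys Cfsg.Lie

section
variable {n : ℕ} {ι : Type*} {R : RSys ι (Fin n)}

theorem center_cases (hc : ∀ S : Fin n → Bool, (∀ i j, R.C i j ≠ 0 → S i = S j) → ∀ i j, S i = S j) {w : R.W}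
    (hw : w ∈ Subgroup.center R.W) : w = 1 ∨ ∀ i, w.1 (R.simple i) = R.neg (R.simple i) := by
  classical
  have hA := R.W_le_Aut w.2
  have k : ∀ i, w.1 (R.simple i) = R.simple i ∨ w.1 (R.simple i) = R.neg (R.simple i) := fun i => by
    by_contra! h
    have h1 : R.refl (w.1 (R.simple i)) = R.refl (R.simple i) := by
      rw [← Aut.conj_refl R hA, mul_inv_eq_iff_eq_mul]
      exact (congrArg Subtype.val (Subgroup.mem_center_iff.1 hw ⟨_, R.sref_mem_W i⟩)).symm
    have h2 := R.rc_refl (R.simple i) (w.1 (R.simple i))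
    rw [← h1, refl_self, R.rc_neg] at h2
    have := (indep h.1 h.2 (a := R.pair (R.simple i) (w.1 (R.simple i))) (b := -2)
      (by linear_combination (exp := 1) h2)).2
    omega
  have k2 := hc (fun i => decide (w.1 (R.simple i) = R.simple i)) fun i j hij => by
    have := Aut.pair_apply hA (R.simple i) (R.simple j)
    have n1 := R.neg_ne_self (R.simple i)
    have n2 := R.neg_ne_self (R.simple j)
    rcases k i with a | a <;> rcases k j with b | b <;> simp [a, b, n1, n2, pair_simple_simple] at this ⊢ <;> omega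
  by_cases h : ∀ i, w.1 (R.simple i) = R.simple i
  · exact Or.inl (Subtype.ext (Aut.ext_simple hA (one_mem _) h))
  · push Not at h
    obtain ⟨i, hi⟩ := h
    exact Or.inr fun j => (k j).resolve_left fun e => hi (by simpa [e] using k2 i j)

theorem neg_mem_center {u : R.W} (hu : ∀ i, u.1 (R.simple i) = R.neg (R.simple i)) : u ∈ Subgroup.center R.W := by
  have k : ∀ r, u.1 r = R.neg r := fun r => R.rc_inj (by
    rw [Aut.rc_apply (R.W_le_Aut u.2), lin_apply, R.rc_neg]
    ext j; simp [hu, R.rc_neg, R.rc_simple, Finset.sum_apply, Pi.single_apply])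
  refine Subgroup.mem_center_iff.2 fun w => Subtype.ext (Equiv.ext fun r => ?_)
  simp [k, Aut.neg_apply (R.W_le_Aut w.2)]

noncomputable instance (C : List (List ℤ)) (M : CoxeterMatrix (Fin n)) : Decidable (coxChk C M) :=
  @Nat.decidableForallFin _ _ fun _ => @Nat.decidableForallFin _ _ fun _ => inferInstance

variable [Fintype ι] [DecidableEq ι] {C : List (List ℤ)} (hC : ∀ i : Fin n, C.getD i [] = List.ofFn (R.C i))
  {M : CoxeterMatrix (Fin n)} (hM : coxChk C M)
include hC

omit [Fintype ι] [DecidableEq ι] in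
theorem conn (hc : ∀ S : Fin n → Bool, (∀ i j : Fin n, (C.getD i []).getD j 0 ≠ 0 → S i = S j) → ∀ i j, S i = S j) :
    ∀ S : Fin n → Bool, (∀ i j, R.C i j ≠ 0 → S i = S j) → ∀ i j, S i = S j := by simp only [hC] at hc; simpa using hc

include hM

theorem card_classes : Nat.card (ConjClasses R.W) = Nat.card (ConjClasses M.Group) := by
  obtain ⟨e, -⟩ := equiv_of_chk hC hM
  exact Nat.card_congr (Quotient.congr e.symm.toEquiv fun a b =>
    ⟨e.symm.toMonoidHom.map_isConj, fun h => e.apply_symm_apply a ▸ e.apply_symm_apply b ▸ e.toMonoidHom.map_isConj h⟩)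

theorem center_two (hc : ∀ S : Fin n → Bool, (∀ i j : Fin n, (C.getD i []).getD j 0 ≠ 0 → S i = S j) → ∀ i j, S i = S j)
    (i₀ : Fin n) (k : ℕ) (hk : ∀ i : Fin n, actL C (List.replicate k (List.finRange n)).flatten (eL i)
      (fun v => decide (v = (eL i).map (-·))) = true) : Nat.card (Subgroup.center M.Group) = 2 ∧
      Subgroup.center M.Group ≤ Subgroup.zpowers ((List.finRange n).map M.simple).prod := by
  obtain ⟨e, he⟩ := equiv_of_chk hC hM
  generalize hc0 : ((List.finRange n).map M.simple).prod = c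
  have h1 : ∀ i, (e (c ^ k)).1 (R.simple i) = R.neg (R.simple i) := fun i => by
    rw [← apply_eq_neg hC (hk i), ← he, ← hc0]; simp [List.prod_flatten]
  have h2 : ∀ g, g ∈ Subgroup.center M.Group ↔ g = 1 ∨ g = c ^ k := fun g => by
    refine ⟨fun h => (center_cases (conn hC hc) (Subgroup.centerCongr e ⟨g, h⟩).2).imp e.map_eq_one_iff.1 fun h' =>
      e.injective (Subtype.ext (Aut.ext_simple (R.W_le_Aut (e g).2) (R.W_le_Aut (e _).2) fun i => (h' i).trans (h1 i).symm)), ?_⟩
    rintro (rfl | rfl)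
    · exact one_mem _
    · exact e.symm_apply_apply (c ^ k) ▸ (Subgroup.centerCongr e.symm ⟨_, neg_mem_center h1⟩).2
  refine ⟨?_, fun g hg => ?_⟩
  · rw [← Set.ncard_pair (a := 1) (b := c ^ k) (fun h => R.neg_ne_self _ (by simpa [← h] using (h1 i₀).symm)),
      ← Nat.card_coe_set_eq]
    exact Nat.card_congr (Equiv.subtypeEquivRight h2)
  · rcases (h2 g).1 hg with rfl | rfl
    exacts [one_mem _, pow_mem (Subgroup.mem_zpowers c) k]

theorem center_one (hc : ∀ S : Fin n → Bool, (∀ i j : Fin n, (C.getD i []).getD j 0 ≠ 0 → S i = S j) → ∀ i j, S i = S j)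
    (l : List (Fin n)) (σ : Fin n → Fin n) (hl : ∀ i : Fin n, actL C l (eL i)
      (fun v => decide (v = (eL (σ i)).map (-·))) = true) {i₀ : Fin n} (h0 : σ i₀ ≠ i₀) :
    Subgroup.center M.Group = ⊥ := by
  obtain ⟨e, -⟩ := equiv_of_chk hC hM
  refine eq_bot_iff.2 fun g h => e.map_eq_one_iff.1
    ((center_cases (conn hC hc) (Subgroup.centerCongr e ⟨g, h⟩).2).resolve_right fun h' => h0 ?_)
  have h1 := eq_w0 (R.wordW_mem_W l) fun j => apply_eq_neg hC (hl j) ▸ not_isPos_neg_simple _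
  have h2 := eq_w0 (e g).2 fun j => (h' j).symm ▸ not_isPos_neg_simple _
  have := apply_eq_neg hC (hl i₀)
  rw [h1, ← h2] at this
  exact R.simple_inj (R.neg_inj'.1 (this.symm.trans (h' i₀)))

theorem gen_of (ts : List (Fin n)) (ht : ts.Nodup) (ω : Fin n → List ℕ) (h : ∀ j i : Fin n, actL C [j] (eL i) (fun v =>
      actL C ((ω j).map fun a => (List.finRange n :: (List.finRange n).reverse :: ts.map fun t => [t]).getD a []).flatten
        (eL i) fun v' => decide (v = v')) = true) :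
    ∃ T : Finset M.Group, T.card = ts.length ∧ (∀ t ∈ T, ∃ (g : M.Group) (i : Fin n), t = g * M.simple i * g⁻¹) ∧
      Subgroup.closure (({((List.finRange n).map M.simple).prod} : Set M.Group) ∪ ↑T) = ⊤ := by
  classical
  obtain ⟨e, he⟩ := equiv_of_chk hC hM
  refine ⟨ts.toFinset.image M.simple, ?_, by simp only [Finset.forall_mem_image]; exact fun i _ => ⟨1, i, by simp⟩, ?_⟩
  · rw [Finset.card_image_of_injective _ fun i j hij => ?_, List.toFinset_card_of_nodup ht]
    have h1 := he [i]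
    have h2 := he [j]
    simp only [List.map_cons, List.map_nil, List.prod_cons, List.prod_nil, mul_one, wordW_singleton, hij] at h1 h2
    exact (sref_mem_WJ_iff (R := R) (J := {j})).1 (h1 ▸ h2 ▸ R.sref_mem_WJ rfl)
  · rw [eq_top_iff, ← M.toCoxeterSystem.subgroup_closure_range_simple, Subgroup.closure_le]
    rintro _ ⟨j, rfl⟩
    have h1 := wordW_eq hC (h j)
    rw [← he, ← he, Subtype.val_inj, e.injective.eq_iff, List.map_singleton, List.prod_singleton] at h1
    rw [CoxeterMatrix.toCoxeterSystem_simple, h1, List.map_flatten, List.prod_flatten]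
    refine list_prod_mem fun x hx => ?_
    simp only [List.map_map, List.mem_map, Function.comp] at hx
    obtain ⟨a, -, rfl⟩ := hx
    have hc := Subgroup.subset_closure (k := ({((List.finRange n).map M.simple).prod} : Set M.Group) ∪
      ↑(ts.toFinset.image M.simple)) (Or.inl rfl)
    rcases a with _ | _ | a
    · exact hc
    · exact (congrArg (· ∈ _) (M.toCoxeterSystem.wordProd_reverse (List.finRange n))).mpr (inv_mem hc)
    · by_cases ha : a < ts.length
      · exact Subgroup.subset_closure (Or.inr (by simp [ha]; exact ⟨_, List.getElem_mem ha, rfl⟩))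
      · simp [ha]

end

def cG2 : List (List ℤ) := [[2,-3],[-1,2]]
theorem hC_G2 : ∀ i : Fin 2, cG2.getD i [] = List.ofFn ((rs chevG2).C i) := by decide +kernel
theorem chk_G2 : coxChk cG2 CoxeterMatrix.G₂ := by decide +kernel

def cB2 : List (List ℤ) := [[2,-2],[-1,2]]
theorem hC_B2 : ∀ i : Fin 2, cB2.getD i [] = List.ofFn ((rs chevB2).C i) := by decide +kernel
theorem chk_B2 : coxChk cB2 (CoxeterMatrix.B 2) := by decide +kernel

def cD4 : List (List ℤ) := [[2,-1,0,0],[-1,2,-1,-1],[0,-1,2,0],[0,-1,0,2]]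
theorem hC_D4 : ∀ i : Fin 4, cD4.getD i [] = List.ofFn ((rs chevD4).C i) := by decide +kernel
theorem chk_D4 : coxChk cD4 coxeterD4 := by decide +kernel

def cF4 : List (List ℤ) := [[2,-1,0,0],[-1,2,-2,0],[0,-1,2,-1],[0,0,-1,2]]
theorem hC_F4 : ∀ i : Fin 4, cF4.getD i [] = List.ofFn ((rs chevF4).C i) := by decide +kernel
theorem chk_F4 : coxChk cF4 CoxeterMatrix.F₄ := by decide +kernel

def cE6 : List (List ℤ) := [[2,0,-1,0,0,0],[0,2,0,-1,0,0],[-1,0,2,-1,0,0],[0,-1,-1,2,-1,0],[0,0,0,-1,2,-1],[0,0,0,0,-1,2]]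
theorem hC_E6 : ∀ i : Fin 6, cE6.getD i [] = List.ofFn ((rs chevE6).C i) := by decide +kernel
theorem chk_E6 : coxChk cE6 CoxeterMatrix.E₆ := by decide +kernel

def cE7 : List (List ℤ) := [[2,0,-1,0,0,0,0],[0,2,0,-1,0,0,0],[-1,0,2,-1,0,0,0],[0,-1,-1,2,-1,0,0],[0,0,0,-1,2,-1,0],[0,0,0,0,-1,2,-1],[0,0,0,0,0,-1,2]]
theorem hC_E7 : ∀ i : Fin 7, cE7.getD i [] = List.ofFn ((rs chevE7).C i) := by decide +kernel
theorem chk_E7 : coxChk cE7 CoxeterMatrix.E₇ := by decide +kernel

def cE8 : List (List ℤ) := [[2,0,-1,0,0,0,0,0],[0,2,0,-1,0,0,0,0],[-1,0,2,-1,0,0,0,0],[0,-1,-1,2,-1,0,0,0],[0,0,0,-1,2,-1,0,0],[0,0,0,0,-1,2,-1,0],[0,0,0,0,0,-1,2,-1],[0,0,0,0,0,0,-1,2]]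
theorem hC_E8 : ∀ i : Fin 8, cE8.getD i [] = List.ofFn ((rs chevE8).C i) := by decide +kernel
theorem chk_E8 : coxChk cE8 CoxeterMatrix.E₈ := by decide +kernel

end Cfsg.Agent.Hk
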